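import Cfsg.Agent.H835.Rg.Reg
import Cfsg.Agent.H926.RG.CoreSum
import Cfsg.Agent.H244.Rg.SumsB
import Cfsg.Agent.H5.Rg.Small
import Cfsg.Agent.H342.Rg.Cent

/-!
# S5714: the statements `CoreSt`, `SmallSt`, `BadSt` are true
-/

set_option autoImplicit false

namespace Cfsg.Agent.H746.Rg

open Cfsg Cfsg.Agent.H141.Rg Cfsg.Agent.H835.Rg Module Polynomial

theorem coreSt : CoreSt := by
  obtain ⟨A1, h1, h1'⟩ := H244.Rg.sum_b1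
  obtain ⟨A2, h2, h2'⟩ := H244.Rg.sum_b2
  obtain ⟨A3, h3, h3'⟩ := H244.Rg.sum_rep
  exact H926.RG.core_of_sums ⟨A1, h1, h1'⟩ ⟨A2, h2, h2'⟩ ⟨A3, h3, h3'⟩

theorem smallSt : SmallSt := H5.Rg.small_le_of H244.Rg.sum_cyc

theorem badSt : BadSt := by
  intro K V _ _ _ _ _ X _ _ T _ _ π h1 h2 τ h3 d ρ w s0 k h4 h5 h6 h7 h8
  exact H342.Rg.badN_le π h1 h2 h3 h4 h5 h6 h7 h8

end Cfsg.Agent.H746.Rg
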